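import Cfsg.Agent.SuzCover.Group

/-!
The extension is a stem extension with cyclic kernel of order six.
-/

set_option autoImplicit false

namespace Cfsg.Agent.SuzCover

open Cfsg Cfsg.Agent.Leech Cfsg.Spor
open scoped commutatorElement

theorem zel_pow_six : zel ^ 6 = 1 := by
  rw [zel, Om_neg_pow, show 6 = 3 * 2 from rfl, pow_mul Om, Om_cube, one_pow, one_mul,
    show 3 * 2 = 2 * 3 from rfl, pow_mul, pow_two negCo0, negCo0_sq, one_pow]

theorem Om_ne_one : Om ≠ 1 := by
  intro h
  have h1 := matEnc_Om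
  rw [h, matEnc_one] at h1
  have := om_facts.2.2.1
  rw [← h1] at this
  exact absurd this (by decide +kernel)

theorem orderOf_zel : orderOf zel = 6 := by
  have h2 : zel ^ 2 ≠ 1 := by
    rw [zel, Om_neg_pow, pow_two negCo0, negCo0_sq, mul_one]
    intro h
    apply Om_ne_one
    have h3 := Om_cube
    rwa [pow_succ, h, one_mul] at h3
  have h3 : zel ^ 3 ≠ 1 := by
    rw [zel, Om_neg_pow, Om_cube, one_mul, pow_succ, pow_two, negCo0_sq, one_mul]
    exact negCo0_ne_one
  have hd := orderOf_dvd_of_pow_eq_one zel_pow_six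
  have hle := Nat.le_of_dvd (by norm_num) hd
  have key : ∀ m : ℕ, m ≤ 6 → m ∣ 6 → m = 6 ∨ m ∣ 2 ∨ m ∣ 3 := by decide
  rcases key _ hle hd with h | h | h
  · exact h
  · exact absurd (orderOf_dvd_iff_pow_eq_one.1 h) h2
  · exact absurd (orderOf_dvd_iff_pow_eq_one.1 h) h3

theorem card_kerZ : Nat.card kerZ = 6 := by
  rw [kerZ, Nat.card_zpowers, ← orderOf_zel, ← Subgroup.orderOf_coe]; rfl

theorem suz_perfect : commutator Cfsg.Spor.Suz = ⊤ := by
  haveI := CosetEnum.Suzuki.main.1
  rcases (commutator_def Cfsg.Spor.Suz ▸ (inferInstance : (commutator Cfsg.Spor.Suz).Normal)).eq_bot_or_eq_top with h | h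
  · exfalso
    have hc : ∀ a b : Cfsg.Spor.Suz, a * b = b * a := fun a b => by
      have hm : ⁅a, b⁆ ∈ commutator Cfsg.Spor.Suz :=
        Subgroup.commutator_mem_commutator (Subgroup.mem_top _) (Subgroup.mem_top _)
      rw [commutator_def, h, Subgroup.mem_bot] at hm
      exact commutatorElement_eq_one_iff_mul_comm.1 hm
    letI : CommGroup Cfsg.Spor.Suz := { (inferInstance : Group Cfsg.Spor.Suz) with mul_comm := hc }
    haveI : Finite Cfsg.Spor.Suz :=
      Nat.finite_of_card_ne_zero (by rw [CosetEnum.Suzuki.main.2]; norm_num)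
    have hp := IsSimpleGroup.prime_card (α := Cfsg.Spor.Suz)
    rw [CosetEnum.Suzuki.main.2] at hp
    exact (Nat.not_prime_of_dvd_of_lt (show 2 ∣ 448345497600 by norm_num) (le_refl 2) (by norm_num)) hp
  · rw [commutator_def]; exact h

theorem exists_split (k : cover) : ∃ c ∈ commutator cover, ∃ n : ℕ, k = c * zK ^ n := by
  have h : proj k ∈ (commutator cover).map proj := by
    rw [CentralExt.map_commutator_top proj proj_surjective, suz_perfect]
    exact Subgroup.mem_top _
  obtain ⟨c, hc, e⟩ := h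
  have hz : c⁻¹ * k ∈ kerZ := by
    rw [← proj_ker, MonoidHom.mem_ker, map_mul, map_inv, e, inv_mul_cancel]
  haveI : Finite cover := by haveI := finite_Co0; exact Subtype.finite
  obtain ⟨n, hn⟩ := (Submonoid.mem_powers_iff _ _).1
    ((isOfFinOrder_of_finite zK).mem_powers_iff_mem_zpowers.2 hz)
  exact ⟨c, hc, n, by rw [hn, mul_inv_cancel_left]⟩

/-- The central element of order three in the cover. -/
noncomputable def omK : cover := ⟨Om, Om_mem⟩

/-- The negation in the cover. -/
noncomputable def negK : cover := ⟨negCo0, neg_mem_cover⟩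

theorem negK_comm (k : cover) : Commute k negK := Subtype.ext (negCo0_comm k.1)

theorem omK_comm (k : cover) : Commute k omK := Subtype.ext (Om_central k.1 k.2)

theorem omK_cube : omK ^ 3 = 1 := Subtype.ext Om_cube

theorem negK_sq : negK ^ 2 = 1 := Subtype.ext (by
  show negCo0 ^ 2 = 1
  rw [pow_two, negCo0_sq])

theorem zK_pow (n : ℕ) : zK ^ n = omK ^ n * negK ^ n :=
  Subtype.ext (Om_neg_pow n)

theorem mem_pm_of_code {g h : cover} (e : matEnc g.1 = matEnc h.1) :
    g = h ∨ g = h * negK := by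
  rcases eq_or_neg_of_matEnc e with e1 | e1
  · exact Or.inl (Subtype.ext e1)
  · exact Or.inr (Subtype.ext e1)

theorem omK_mem_commutator : omK ∈ commutator cover := by
  let M : Subgroup cover := commutator cover ⊔ Subgroup.zpowers negK
  have hneg : negK ∈ M := Subgroup.mem_sup_right (Subgroup.mem_zpowers _)
  have hcom : commutator cover ≤ M := le_sup_left
  have hlift : ∀ x, (⟨liftGen x, liftGen_mem x⟩ : cover) ∈ M := by
    intro x
    obtain ⟨c, hc, n, e⟩ := exists_split ⟨liftGen x, liftGen_mem x⟩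
    have hsq : ((⟨liftGen x, liftGen_mem x⟩ : cover)) ^ 2 ∈ M := by
      have h1 : matEnc ((⟨liftGen x, liftGen_mem x⟩ : cover) ^ 2).1 = matEnc (1 : cover).1 := by
        have hw := matEnc_word [x, x]
        simp only [List.map_cons, List.map_nil, List.prod_cons, List.prod_nil, mul_one] at hw
        rw [SubgroupClass.coe_pow, pow_two, OneMemClass.coe_one, matEnc_one]
        exact hw.trans (Nat.eq_of_beq_eq_true (List.all_eq_true.1 sq_letters x (mem_genList x)))
      rcases mem_pm_of_code h1 with h | h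
      · rw [h]; exact one_mem _
      · rw [h, one_mul]; exact hneg
    have hz : (omK ^ n) ^ 2 ∈ M := by
      have hzc : Commute c (zK ^ n) := (Subgroup.mem_center_iff.1 (pow_mem zK_central n) c)
      rw [e, hzc.mul_pow, zK_pow, ((omK_comm (negK ^ n)).symm.pow_left n).mul_pow] at hsq
      have h1 : (negK ^ n) ^ 2 = 1 := by rw [← pow_mul, mul_comm, pow_mul, negK_sq, one_pow]
      rw [h1, mul_one] at hsq
      exact (Subgroup.mul_mem_cancel_left M (pow_mem (hcom hc) 2)).1 hsq
    have hz1 : omK ^ n ∈ M := by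
      have h4 : (omK ^ n) ^ 4 = omK ^ n := by
        rw [← pow_mul, mul_comm, pow_mul, pow_succ, omK_cube, one_mul]
      rw [← h4, show 4 = 2 * 2 from rfl, pow_mul]
      exact pow_mem hz 2
    rw [e, zK_pow]
    exact mul_mem (hcom hc) (mul_mem hz1 (pow_mem hneg n))
  have hom : omK ∈ M := by
    have hw := matEnc_wordPow [Suz.Gen.b, Suz.Gen.f, Suz.Gen.g] 5
    let W : cover := ⟨liftGen .b, liftGen_mem _⟩ * (⟨liftGen .f, liftGen_mem _⟩ * ⟨liftGen .g, liftGen_mem _⟩)
    have hW : W ^ 5 ∈ M := pow_mem (mul_mem (hlift _) (mul_mem (hlift _) (hlift _))) 5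
    have hc : matEnc omK.1 = matEnc (W ^ 5).1 := by
      show matEnc Om = _
      rw [matEnc_Om, ← Nat.eq_of_beq_eq_true extra_ok.2.2.2.1]
      simp only [List.map_cons, List.map_nil, List.prod_cons, List.prod_nil, mul_one] at hw
      rw [SubgroupClass.coe_pow]
      exact hw.symm
    rcases mem_pm_of_code hc with h | h
    · rw [h]; exact hW
    · rw [h]; exact mul_mem hW hneg
  haveI : (Subgroup.zpowers negK).Normal := ⟨fun n hn g => by
    obtain ⟨i, rfl⟩ := Subgroup.mem_zpowers_iff.1 hn
    rw [((negK_comm g).zpow_right i).eq, mul_inv_cancel_right]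
    exact hn⟩
  obtain ⟨c, hc, s, hs, e⟩ := Subgroup.mem_sup_of_normal_right.1 hom
  obtain ⟨i, rfl⟩ := Subgroup.mem_zpowers_iff.1 hs
  have h4 : omK ^ 4 = omK := by rw [pow_succ, omK_cube, one_mul]
  have hs4 : (negK ^ i) ^ 4 = 1 := by
    rw [← zpow_natCast, ← zpow_mul, mul_comm, zpow_mul, zpow_natCast,
      show 4 = 2 * 2 from rfl, pow_mul, negK_sq, one_pow, one_zpow]
  rw [← h4, ← e, ((negK_comm c).zpow_right i).mul_pow, hs4, mul_one]
  exact pow_mem hc 4

theorem negK_mem_commutator : negK ∈ commutator cover := by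
  have hsq : elt sqCode * elt sqCode = negCo0 := by
    have hc : sqCode ∈ letterCodes ++ [omCode, sqCode, sqConj] := by simp
    obtain ⟨hq1, hq2, hq3, hq4⟩ := sq_facts
    obtain ⟨b, hb, hbw⟩ := List.any_eq_true.1 hq3
    simp only [Bool.and_eq_true, beq_iff_eq] at hbw
    obtain ⟨hb1, hb2⟩ := hbw
    have hact : matEnc (wordAut sqWord) = sqCode := by
      rw [← Nat.eq_of_beq_eq_true hb2, matEnc, ← hb1,
        colsOf_eq_of_acts (actsB_of_fast (List.all_eq_true.1 base_ok b hb))
          (Nat.eq_of_beq_eq_true (List.all_eq_true.1 base_len b hb))]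
    have hww : wordAut sqWord * wordAut sqWord = negCo0 := by
      have e : matEnc (wordAut sqWord * wordAut sqWord) = matEnc (1 : Co0) := by
        rw [matEnc_mul, hact, matEnc_one]; exact Nat.eq_of_beq_eq_true hq2
      rcases eq_or_neg_of_matEnc e with h | h
      · exfalso
        obtain ⟨v, hv, hne⟩ := List.any_eq_true.1 hq4
        have hv' : inLeechB v = true := List.all_eq_true.1 genKeys_eq.2 v hv
        have := congrArg (fun g : Co0 => (g • (⟨v, mem_of_inLeechB hv'⟩ : leechLattice)).1) h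
        simp only [mul_smul, one_smul, wordAut_smul] at this
        rw [this] at hne
        simp [eqB] at hne
      · rwa [one_mul] at h
    rcases eq_or_neg_of_matEnc ((matEnc_elt hc).trans hact.symm) with h | h
    · rw [h, hww]
    · rw [h, mul_assoc (wordAut sqWord), ← mul_assoc negCo0, ← negCo0_comm,
        mul_assoc (wordAut sqWord) negCo0, negCo0_sq, mul_one, hww]
  have hd : liftGen .d * liftGen .d = negCo0 := by
    have hy : matEnc (liftGen .d * elt sqConj) = matEnc (elt sqConj * elt sqCode) := by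
      rw [matEnc_mul, matEnc_mul, matEnc_elt (by simp), matEnc_elt (by simp)]
      have hw := matEnc_word [Suz.Gen.d]
      simp only [List.map_cons, List.map_nil, List.prod_cons, List.prod_nil, mul_one] at hw
      rw [hw]
      exact Nat.eq_of_beq_eq_true sq_facts.1
    set y := elt sqConj
    set U := elt sqCode
    have hz : ∀ g : Co0, Commute g negCo0 := negCo0_comm
    have key : liftGen .d = y * U * y⁻¹ ∨ liftGen .d = y * U * y⁻¹ * negCo0 := by
      rcases eq_or_neg_of_matEnc hy with h | h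
      · exact Or.inl (by rw [← h, mul_inv_cancel_right])
      · refine Or.inr ?_
        rw [mul_assoc (y * U) y⁻¹ negCo0, (hz y⁻¹).eq, ← mul_assoc, ← h, mul_inv_cancel_right]
    rcases key with h | h
    · rw [h, show y * U * y⁻¹ * (y * U * y⁻¹) = y * (U * U) * y⁻¹ by group, hsq, (hz y).eq,
        mul_inv_cancel_right]
    · rw [h, mul_assoc, ← mul_assoc negCo0, ← (hz _).eq, mul_assoc _ negCo0, negCo0_sq, mul_one,
        show y * U * y⁻¹ * (y * U * y⁻¹) = y * (U * U) * y⁻¹ by group, hsq, (hz y).eq,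
        mul_inv_cancel_right]
  obtain ⟨c, hc, n, e⟩ := exists_split ⟨liftGen .d, liftGen_mem _⟩
  have hzc : Commute c (zK ^ n) := Subgroup.mem_center_iff.1 (pow_mem zK_central n) c
  have e2 : negK = c ^ 2 * (omK ^ n) ^ 2 := by
    have h1 : negK = (⟨liftGen .d, liftGen_mem _⟩ : cover) ^ 2 := Subtype.ext (by
      rw [SubgroupClass.coe_pow, pow_two]; exact hd.symm)
    have h2 : (negK ^ n) ^ 2 = 1 := by rw [← pow_mul, mul_comm, pow_mul, negK_sq, one_pow]
    rw [h1, e, hzc.mul_pow, zK_pow, ((omK_comm (negK ^ n)).symm.pow_left n).mul_pow, h2, mul_one]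
  rw [e2]
  exact mul_mem (pow_mem hc 2) (pow_mem (pow_mem omK_mem_commutator n) 2)

theorem proj_stem : IsStemExtension proj := by
  refine ⟨proj_surjective, proj_ker ▸ kerZ_le_center, ?_⟩
  rw [proj_ker, kerZ, Subgroup.zpowers_le]
  have : zK = omK * negK := Subtype.ext rfl
  rw [this]
  exact mul_mem omK_mem_commutator negK_mem_commutator

theorem card_proj_ker : Nat.card proj.ker = 6 := by rw [proj_ker]; exact card_kerZ

theorem isCyclic_proj_ker : IsCyclic proj.ker :=
  isCyclic_iff_exists_zpowers_eq_top.2 (by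
    rw [proj_ker]
    refine ⟨⟨zK, Subgroup.mem_zpowers _⟩, eq_top_iff.2 fun x _ => ?_⟩
    obtain ⟨i, hi⟩ := Subgroup.mem_zpowers_iff.1 x.2
    exact Subgroup.mem_zpowers_iff.2 ⟨i, Subtype.ext (by simpa using hi)⟩)

end Cfsg.Agent.SuzCover
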