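import Cfsg.Agent.Leech.LinFast
import Cfsg.Agent.SchurBound.Bound

/-!
A faster form of the linear test of a bounding certificate.
-/

set_option autoImplicit false

namespace Cfsg.Agent.SuzCover

open Cfsg.Agent.SchurCert Cfsg.Agent.SchurBound Cfsg.Agent.Leech

variable (B : BCert)

/-- The first side of an equation. -/
def bside1 (r : ℕ) : List ℕ := (B.eqs.getD r ([], [])).1

/-- The second side of an equation. -/
def bside2 (r : ℕ) : List ℕ := (B.eqs.getD r ([], [])).2

/-- The linear forms of a relation agree. -/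
def formFB (h₁ h₂ c : List ℕ) : Bool :=
  boundF B.D.nvar h₁ && boundF B.D.nvar h₂ &&
    Nat.blt (Nat.add (lenF h₁) (sumF (fun r => lenF (bside1 B r)) c)) 16777216 &&
    Nat.blt (Nat.add (lenF h₂) (sumF (fun r => lenF (bside2 B r)) c)) 16777216 &&
    digitsF B.q B.D.nvar (Nat.add (packF h₁) (sumF (fun r => packF (bside1 B r)) c))
      (Nat.add (packF h₂) (sumF (fun r => packF (bside2 B r)) c))

/-- The multiples of the corrected tails vanish. -/
def linFastB : Bool :=
  (B.eqs.all fun q => boundF B.D.nvar q.1 && boundF B.D.nvar q.2) &&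
    (List.range B.D.P.n).all fun j =>
      formFB B (B.scaled (PC.pVar j :: B.D.betaW (B.D.P.powWord j))) []
          (B.D.combo.getD (PC.pVar j) []) &&
        (List.range j).all fun i =>
          formFB B (B.scaled (PC.cVar j i :: B.D.betaW (B.D.P.cjWord j i)))
            (B.scaled (B.D.beta.getD i [])) (B.D.combo.getD (PC.cVar j i) [])

variable {B}

theorem sameForm_of_formFB {h₁ h₂ c : List ℕ}
    (hb : (B.eqs.all fun q => boundF B.D.nvar q.1 && boundF B.D.nvar q.2) = true)
    (h : formFB B h₁ h₂ c = true) :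
    sameForm B.q B.D.nvar (h₁ ++ c.flatMap (bside1 B)) (h₂ ++ c.flatMap (bside2 B)) = true := by
  simp only [formFB, Bool.and_eq_true, Nat.blt_eq] at h
  obtain ⟨⟨⟨⟨b1, b2⟩, l1⟩, l2⟩, hd⟩ := h
  have hs : ∀ r, (∀ x ∈ bside1 B r, x < B.D.nvar) ∧ ∀ x ∈ bside2 B r, x < B.D.nvar := by
    intro r
    simp only [bside1, bside2, List.getD_eq_getElem?_getD]
    cases hr : B.eqs[r]? with
    | none => simp
    | some q =>
      have := List.all_eq_true.mp hb q (List.mem_of_getElem? hr)
      rw [Bool.and_eq_true] at this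
      exact ⟨boundF_iff.mp this.1, boundF_iff.mp this.2⟩
  simp only [sameForm, Bool.and_eq_true, List.all_eq_true, Nat.blt_eq, List.mem_range,
    List.length_append, length_flatMap_eq]
  rw [lenF_eq h₁, lenF_eq h₂]
  refine ⟨⟨⟨⟨?_, ?_⟩, l1⟩, l2⟩, fun l hl => ?_⟩
  · intro x hx
    rcases List.mem_append.mp hx with hx | hx
    · exact boundF_iff.mp b1 x hx
    · obtain ⟨r, -, hr⟩ := List.mem_flatMap.mp hx
      exact (hs r).1 x hr
  · intro x hx
    rcases List.mem_append.mp hx with hx | hx
    · exact boundF_iff.mp b2 x hx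
    · obtain ⟨r, -, hr⟩ := List.mem_flatMap.mp hx
      exact (hs r).2 x hr
  · rw [packCount_append, packCount_append, packCount_flatMap, packCount_flatMap, packF_eq,
      packF_eq]
    have e := digitsF_spec hd l hl
    exact Nat.beq_eq.mpr e

theorem linOKB_of_fast (h : linFastB B = true) : B.linOK = true := by
  simp only [linFastB, Bool.and_eq_true] at h
  obtain ⟨hb, hj⟩ := h
  simp only [List.all_eq_true, List.mem_range, Bool.and_eq_true] at hj
  simp only [BCert.linOK, List.all_eq_true, List.mem_range, Bool.and_eq_true]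
  intro j hjn
  refine ⟨?_, fun i hi => ?_⟩
  · exact sameForm_of_formFB hb (hj j hjn).1
  · exact sameForm_of_formFB hb ((hj j hjn).2 i hi)

end Cfsg.Agent.SuzCover
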