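import Cfsg.Agent.SuzCover.Code
import Cfsg.Agent.SuzCover.LinB
import Cfsg.Agent.Leech.GroupSep

/-!
The checks of the two certificates for the prime 2.
-/

set_option autoImplicit false
set_option maxRecDepth 100000
set_option Elab.async false

namespace Cfsg.Agent.SuzCover

open Cfsg.Agent.Leech Cfsg.Agent.SchurCert Cfsg.Agent.SchurBound

theorem cert2_wf : suzCert2One.P.wf = true := by decide +kernel

theorem cert2_rel : relB suzCert2One mulZ oneZ = true := by decide +kernel

theorem cert2_sep : sepAll suzCert2One mulZ oneZ 7 = true := by decide +kernel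

theorem cert2_rows1 : suzB2One.D.rows.all (suzB2One.rowOK mulZ oneZ) = true := by
  decide +kernel

theorem cert2_rows2 : suzB2Two.D.rows.all (suzB2Two.rowOK mulZ oneZ) = true := by
  decide +kernel

theorem cert2_lin1 : suzB2One.linOK = true := linOKB_of_fast (by decide +kernel)

theorem cert2_lin2 : suzB2Two.linOK = true := linOKB_of_fast (by decide +kernel)

theorem cert2_wf2 : suzCert2Two.P.wf = true := by decide +kernel

theorem cert2_rel2 : relB suzCert2Two mulZ oneZ = true := by decide +kernel

theorem cert2_sep2 : sepAll suzCert2Two mulZ oneZ 7 = true := by decide +kernel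

end Cfsg.Agent.SuzCover
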