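import Cfsg.Agent.SuzCover.CertProg
import Cfsg.Agent.SuzCover.CertTwo
import Cfsg.Agent.SuzCover.CertThree
import Cfsg.Agent.SchurBound.Main

/-!
The Schur multiplier of the Suzuki group is cyclic of order six.
-/

set_option autoImplicit false
set_option maxRecDepth 100000

namespace Cfsg.Agent.SuzCover

open Cfsg Cfsg.Agent.Leech Cfsg.Agent.SchurCert Cfsg.Agent.SchurBound

instance suz_finite : Finite Cfsg.Spor.Suz :=
  Nat.finite_of_card_ne_zero (by rw [CosetEnum.Suzuki.main.2]; norm_num)

/-- The generators of a certificate. -/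
noncomputable def certGen (D : Cert) (i : ℕ) : Cfsg.Spor.Suz := suzElem (D.gens.getD i oneZ)

/-- The fusing elements of a certificate. -/
noncomputable def certGs (D : Cert) (i : ℕ) : Cfsg.Spor.Suz := suzElem (D.gs.getD i oneZ)

theorem applies_of_checks (B : BCert) (p k m : ℕ) (hp : p.Prime) (hP : B.D.P.p = p)
    (hneed : ∀ c ∈ B.D.gens ++ B.D.gs, c ∈ needCodes) (hk : k ≤ B.D.P.n)
    (hwf : B.D.P.wf = true) (hrel : relB B.D mulZ oneZ = true)
    (hsep : sepAll B.D mulZ oneZ k = true) (hrows : B.D.rows.all (B.rowOK mulZ oneZ) = true)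
    (hlin : B.linOK = true) (hN : 448345497600 = p ^ B.D.P.n * m) (hm : ¬ p ∣ m) :
    Applies suzCode B p (certGen B.D) (certGs B.D) := by
  have hgen : ∀ i, suzCode.enc (certGen B.D i) = B.D.gens.getD i oneZ :=
    enc_suzElem _ fun c hc => hneed c (List.mem_append_left _ hc)
  have hgs : ∀ i, suzCode.enc (certGs B.D i) = B.D.gs.getD i oneZ :=
    enc_suzElem _ fun c hc => hneed c (List.mem_append_right _ hc)
  have hgrp : B.D.groupOK mulZ oneZ = true :=
    groupOK_of_sep suzCode (gen := certGen B.D) (hP.symm ▸ hp) hwf (fun i _ => hgen i) hk hrel hsep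
  obtain ⟨-, hcard⟩ := card_initGroup_of_groupOK suzCode B.D (hP.symm ▸ hp) (certGen B.D)
    (fun i _ => hgen i) hwf hgrp
  refine ⟨hp, hP, fun i _ => hgen i, hgs, ?_, ?_⟩
  · have h := (initGroup (certGen B.D) B.D.P.n).card_mul_index
    rw [hcard, hP, CosetEnum.Suzuki.main.2, hN] at h
    rw [Nat.eq_of_mul_eq_mul_left (pow_pos hp.pos _) h]
    exact hm
  · show B.check mulZ oneZ = true
    simp only [BCert.check, hwf, hgrp, hrows, hlin, Bool.and_self]

theorem need_sub {L : List ℕ} (h : (L.all fun c => needCodes.any (Nat.beq c)) = true) :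
    ∀ c ∈ L, c ∈ needCodes := fun c hc => by
  obtain ⟨y, hy, hcy⟩ := List.any_eq_true.1 (List.all_eq_true.1 h c hc)
  exact Nat.eq_of_beq_eq_true hcy ▸ hy

theorem suz_two_part :
    (Nat.card (CentralExt.schurMult Cfsg.Spor.Suz)).factorization 2 ≤ 1 :=
  factorization_schurMult_le suzCode (p := 2) (k := 1) (B₁ := suzB2One) (B₂ := suzB2Two)
    (applies_of_checks suzB2One 2 7 54729675 Nat.prime_two rfl (need_sub (by decide +kernel))
      (by decide +kernel) cert2_wf cert2_rel cert2_sep cert2_rows1 cert2_lin1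
      (by decide +kernel) (by decide +kernel))
    (applies_of_checks suzB2Two 2 7 54729675 Nat.prime_two rfl (need_sub (by decide +kernel))
      (by decide +kernel) cert2_wf2 cert2_rel2 cert2_sep2 cert2_rows2 cert2_lin2
      (by decide +kernel) (by decide +kernel))
    _ rfl rfl rfl rfl rfl rfl

theorem suz_three_part :
    (Nat.card (CentralExt.schurMult Cfsg.Spor.Suz)).factorization 3 ≤ 1 :=
  factorization_schurMult_le suzCode (p := 3) (k := 1) (B₁ := suzB3One) (B₂ := suzB3Two)
    (applies_of_checks suzB3One 3 4 205004800 Nat.prime_three rfl (need_sub (by decide +kernel))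
      (by decide +kernel) cert3_wf cert3_rel cert3_sep cert3_rows1 cert3_lin1
      (by decide +kernel) (by decide +kernel))
    (applies_of_checks suzB3Two 3 4 205004800 Nat.prime_three rfl (need_sub (by decide +kernel))
      (by decide +kernel) cert3_wf2 cert3_rel2 cert3_sep2 cert3_rows2 cert3_lin2
      (by decide +kernel) (by decide +kernel))
    _ rfl rfl rfl rfl rfl rfl

theorem five_check : suzCert5One.check mulZ oneZ = true := by decide +kernel

theorem five_part : ¬ 5 ∣ Nat.card (CentralExt.schurMult Cfsg.Spor.Suz) := by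
  haveI : Fact (Nat.Prime 5) := ⟨by norm_num⟩
  have hneed : ∀ c ∈ suzCert5One.gens ++ suzCert5One.gs, c ∈ needCodes :=
    need_sub (by decide +kernel)
  have hgen : ∀ i, suzCode.enc (certGen suzCert5One i) = suzCert5One.gens.getD i oneZ :=
    enc_suzElem _ fun c hc => hneed c (List.mem_append_left _ hc)
  have hgs : ∀ i, suzCode.enc (certGs suzCert5One i) = suzCert5One.gs.getD i oneZ :=
    enc_suzElem _ fun c hc => hneed c (List.mem_append_right _ hc)
  have hchk := five_check
  simp only [Cert.check, Bool.and_eq_true] at hchk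
  obtain ⟨-, hcard⟩ := card_initGroup_of_groupOK suzCode suzCert5One (Fact.out : Nat.Prime 5)
    (certGen suzCert5One) (fun i _ => hgen i) hchk.1.1.1 hchk.1.1.2
  refine not_dvd_schurMult_of_cert suzCode suzCert5One 5 rfl (certGen suzCert5One)
    (certGs suzCert5One) (fun i _ => hgen i) hgs ?_ five_check
  have h := (initGroup (certGen suzCert5One) suzCert5One.P.n).card_mul_index
  rw [hcard, CosetEnum.Suzuki.main.2,
    show (448345497600 : ℕ) = suzCert5One.P.p ^ suzCert5One.P.n * 17933819904 by decide +kernel] at h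
  rw [Nat.eq_of_mul_eq_mul_left (by decide +kernel) h]
  decide +kernel

theorem six_dvd : 6 ∣ Nat.card (CentralExt.schurMult Cfsg.Spor.Suz) := by
  obtain ⟨π, hπ⟩ := CentralExt.exists_surjective_ker proj_stem
  have := Subgroup.card_dvd_of_surjective π hπ
  rwa [card_proj_ker] at this

theorem card_schurMult_Suz : Nat.card (CentralExt.schurMult Cfsg.Spor.Suz) = 6 := by
  have hpos : Nat.card (CentralExt.schurMult Cfsg.Spor.Suz) ≠ 0 := Nat.card_pos.ne'
  refine Nat.dvd_antisymm ?_ six_dvd
  rw [← Nat.factorization_le_iff_dvd hpos (by norm_num)]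
  intro p
  by_cases hp : p.Prime
  swap
  · simp [Nat.factorization_eq_zero_of_not_prime _ hp]
  rcases eq_or_ne p 2 with rfl | h2
  · exact suz_two_part.trans
      ((Nat.prime_two.pow_dvd_iff_le_factorization (by norm_num)).1 (by norm_num))
  rcases eq_or_ne p 3 with rfl | h3
  · exact suz_three_part.trans
      ((Nat.prime_three.pow_dvd_iff_le_factorization (by norm_num)).1 (by norm_num))
  haveI : Fact p.Prime := ⟨hp⟩
  rw [Nat.factorization_eq_zero_of_not_dvd]
  · exact Nat.zero_le _
  rcases eq_or_ne p 5 with rfl | h5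
  · exact five_part
  refine not_dvd_schurMult_of_sq_not_dvd p fun hsq => ?_
  rw [CosetEnum.Suzuki.main.2,
    show (448345497600 : ℕ) = 2 ^ 13 * 3 ^ 7 * 5 ^ 2 * 1001 by norm_num] at hsq
  have hco : ∀ q : ℕ, q.Prime → p ≠ q → ∀ e : ℕ, Nat.Coprime (p ^ 2) (q ^ e) := fun q hq hne e =>
    Nat.Coprime.pow _ _ ((Nat.coprime_primes hp hq).2 hne)
  have h1 : p ^ 2 ∣ 1001 :=
    ((((hco 2 Nat.prime_two h2 13).mul_right (hco 3 Nat.prime_three h3 7)).mul_right
      (hco 5 (by norm_num) h5 2)).dvd_mul_left).1 hsq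
  have hle : p ^ 2 ≤ 1001 := Nat.le_of_dvd (by norm_num) h1
  have hlt : p < 32 := by nlinarith
  have key : ∀ q < 32, q ^ 2 ∣ 1001 → q = 1 := by decide +kernel
  exact hp.ne_one (key p hlt h1)

theorem suz_multiplier : HasCyclicSchurMultiplier Cfsg.Spor.Suz 6 := by
  obtain ⟨π, hπ⟩ := CentralExt.exists_surjective_ker proj_stem
  haveI := isCyclic_proj_ker
  obtain ⟨ε⟩ : Nonempty (CentralExt.schurMult Cfsg.Spor.Suz ≃* Multiplicative (ZMod 6)) := by
    have hb : Function.Bijective π :=
      (Nat.bijective_iff_surjective_and_card _).2 ⟨hπ, by rw [card_schurMult_Suz, card_proj_ker]⟩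
    exact ⟨(MulEquiv.ofBijective π hb).trans (mulEquivOfCyclicCardEq (by
      rw [card_proj_ker, Nat.card_congr Multiplicative.toAdd, Nat.card_zmod]))⟩
  exact CentralExt.hasSchurMultiplier_iff.2 ⟨ε.symm⟩

end Cfsg.Agent.SuzCover
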