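import Cfsg.Agent.SuzCover.Data
import Cfsg.Prelude.Def_Spor_Suz

/-!
Checks of the lifts of the seven generators.
-/

set_option autoImplicit false
set_option maxRecDepth 100000
set_option Elab.async false

namespace Cfsg.Agent.SuzCover

open Cfsg.Agent.Leech Cfsg.Spor

/-- The code of a word in the lifts, numbered from one. -/
def codeW : List ℕ → ℕ
  | [] => matOne
  | i :: w => matMul (letterCodes.getD (i - 1) matOne) (codeW w)

/-- The code of a repeated word. -/
def codeP (w : List ℕ) : ℕ → ℕ
  | 0 => matOne
  | n + 1 => matMul (codeP w n) (codeW w)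

/-- The code of the square of the central code. -/
def omSq : ℕ := matMul omCode omCode

/-- A code of a central element. -/
def centB (c : ℕ) : Bool := Nat.beq c matOne || Nat.beq c omCode || Nat.beq c omSq

/-- The number of a generator. -/
def genIdx : Suz.Gen → ℕ
  | .a => 1
  | .b => 2
  | .c => 3
  | .d => 4
  | .e => 5
  | .f => 6
  | .g => 7

/-- The generators. -/
def genList : List Suz.Gen := [.a, .b, .c, .d, .e, .f, .g]

/-- The relators as repeated words of letters. -/
def extraWords : List (List ℕ × ℕ) :=
  [([1, 2, 3, 6], 5), ([2, 6, 7], 5)]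

theorem steps_ok : progB gensProg.known gensProg.steps = true ∧
    ((letterCodes ++ [omCode, sqCode, sqConj]).all fun c =>
      (progCodes gensProg.known gensProg.steps).any (Nat.beq c)) = true := by
  decide +kernel

theorem cox_ok : (genList.all fun x => genList.all fun y =>
    centB (codeP [genIdx x, genIdx y] (coxLabel Suz.edges x y))) = true := by
  decide +kernel

theorem extra_ok :
    Nat.beq (codeP [3, 4] 4) (letterCodes.getD 0 matOne) = true ∧
    Nat.beq (codeP [6, 7] 2) (letterCodes.getD 0 matOne) = true ∧
    Nat.beq (codeP [1, 2, 3, 6] 5) matOne = true ∧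
    Nat.beq (codeP [2, 6, 7] 5) omCode = true ∧
    centB (codeP [2, 3, 4, 3, 4] 5) = false ∧
    Nat.beq (matMul (matMul (codeP [2, 3, 4, 3, 4] 5) (codeW [5]))
      (matMul (matMul (codeP [2, 3, 4, 3, 4] 5) (codeW [5]))
        (matMul (codeP [2, 3, 4, 3, 4] 5) (codeW [5])))) matOne = true := by
  decide +kernel

theorem sq_letters : (genList.all fun x => Nat.beq (codeW [genIdx x, genIdx x]) matOne) = true := by
  decide +kernel

theorem om_facts : (genList.all fun x => Nat.beq (matMul omCode (codeW [genIdx x]))
      (matMul (codeW [genIdx x]) omCode)) = true ∧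
    Nat.beq (matMul omSq omCode) matOne = true ∧ Nat.beq omCode matOne = false ∧
    Nat.beq omCode omSq = false ∧ centB (codeW [1]) = false := by
  decide +kernel

theorem sq_facts : Nat.beq (matMul (codeW [4]) sqConj) (matMul sqConj sqCode) = true ∧
    Nat.beq (matMul sqCode sqCode) matOne = true ∧
    (gensProg.base.any fun g => g.1 == sqWord && Nat.beq (packCols g.2) sqCode) = true ∧
    (Cfsg.Agent.Leech.genVecs.any fun v => !eqB v (wordApp2 sqWord (wordApp2 sqWord v))) = true := by
  decide +kernel

end Cfsg.Agent.SuzCover
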