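import Cfsg.Agent.SuzCover.Stem
import Cfsg.Agent.SuzCover.CertData

/-!
The Suzuki group coded by matrices modulo 2 of the cover, normalised by the central element of
order three.
-/

set_option autoImplicit false
set_option maxRecDepth 100000
set_option Elab.async false

namespace Cfsg.Agent.SuzCover

open Cfsg Cfsg.Agent.Leech Cfsg.Agent.SchurCert

/-- Evaluate the argument first. -/
def strictN (r : ℕ) (f : ℕ → ℕ) : ℕ :=
  match r with
  | 0 => f 0
  | n + 1 => f (n + 1)

/-- The smaller number. -/
def minN (a b : ℕ) : ℕ := bif Nat.ble a b then a else b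

/-- The least code of the three congruent ones. -/
def normC (c : ℕ) : ℕ :=
  strictN c fun c => strictN (matMul c omCode) fun a => strictN (matMul c omSq) fun b =>
    minN c (minN a b)

/-- The multiplication. -/
def mulZ (q r : ℕ) : ℕ := normC (matMul q r)

/-- The code of the identity. -/
def oneZ : ℕ := normC matOne

theorem strictN_eq (r : ℕ) (f : ℕ → ℕ) : strictN r f = f r := by cases r <;> rfl

theorem minN_eq (a b : ℕ) : minN a b = min a b := by
  simp only [minN]
  cases h : Nat.ble a b
  · have : ¬ a ≤ b := fun hab => by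
      rw [← Nat.ble_eq] at hab; rw [hab] at h; exact Bool.noConfusion h
    simp only [cond_false]; omega
  · rw [Nat.ble_eq] at h
    simp only [cond_true]; omega

attribute [local irreducible] matMul matOne omCode omSq matEnc

theorem normC_eq (c : ℕ) : normC c = min c (min (matMul c omCode) (matMul c omSq)) := by
  simp only [normC, strictN_eq, minN_eq]

theorem matEnc_mul_Om (g : Co0) : matEnc (g * Om) = matMul (matEnc g) omCode := by
  rw [matEnc_mul, matEnc_Om]

theorem normC_Om (g : Co0) : normC (matEnc (g * Om)) = normC (matEnc g) := by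
  rw [normC_eq, normC_eq, matEnc_mul_Om]
  have h1 : matMul (matMul (matEnc g) omCode) omCode = matMul (matEnc g) omSq := by
    rw [← matEnc_Om_sq, ← matEnc_Om, ← matEnc_mul, ← matEnc_mul, ← matEnc_mul, mul_assoc]
  have h2 : matMul (matMul (matEnc g) omCode) omSq = matEnc g := by
    rw [← matEnc_Om_sq, ← matEnc_Om, ← matEnc_mul, ← matEnc_mul, mul_assoc, ← mul_assoc Om,
      ← pow_two, ← pow_succ, Om_cube, mul_one]
  rw [h1, h2]
  omega

theorem normC_Om_pow (g : Co0) (n : ℕ) : normC (matEnc (g * Om ^ n)) = normC (matEnc g) := by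
  induction n with
  | zero => rw [pow_zero, mul_one]
  | succ n ih => rw [pow_succ, ← mul_assoc, normC_Om, ih]

theorem normC_mem (g : Co0) : ∃ n : ℕ, normC (matEnc g) = matEnc (g * Om ^ n) := by
  rw [normC_eq]
  rcases min_choice (matEnc g) (min (matMul (matEnc g) omCode) (matMul (matEnc g) omSq)) with h | h
  · exact ⟨0, by rw [h, pow_zero, mul_one]⟩
  · rw [h]
    rcases min_choice (matMul (matEnc g) omCode) (matMul (matEnc g) omSq) with h' | h'
    · exact ⟨1, by rw [h', pow_one, matEnc_mul_Om]⟩
    · exact ⟨2, by rw [h', pow_two, matEnc_mul, matEnc_Om_sq]⟩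

theorem normC_zpow (g : cover) {z : cover} (hz : z ∈ kerZ) :
    normC (matEnc (g * z : cover).1) = normC (matEnc g.1) := by
  obtain ⟨j, hj⟩ := code_of_mem_kerZ hz
  rw [Subgroup.coe_mul, matEnc_mul, hj, ← matEnc_mul, normC_Om_pow]

theorem normC_of_proj {g h : cover} (e : proj g = proj h) :
    normC (matEnc g.1) = normC (matEnc h.1) := by
  have hz : g⁻¹ * h ∈ kerZ := by
    rw [← proj_ker, MonoidHom.mem_ker, map_mul, map_inv, e, inv_mul_cancel]
  have := normC_zpow g hz
  rwa [mul_inv_cancel_left, eq_comm] at this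

/-- A preimage in the cover. -/
noncomputable def pre (x : Cfsg.Spor.Suz) : cover := Function.surjInv proj_surjective x

theorem proj_pre (x : Cfsg.Spor.Suz) : proj (pre x) = x := Function.surjInv_eq _ _

/-- The coding of the Suzuki group. -/
noncomputable def suzCode : Code Cfsg.Spor.Suz where
  mul := mulZ
  one := oneZ
  enc x := normC (matEnc (pre x).1)
  enc_one := by
    rw [normC_of_proj (h := 1) (by rw [proj_pre, map_one]), OneMemClass.coe_one, matEnc_one]; rfl
  enc_mul a b := by
    rw [normC_of_proj (h := pre a * pre b) (by rw [proj_pre, map_mul, proj_pre, proj_pre])]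
    obtain ⟨i, hi⟩ := normC_mem (pre a).1
    obtain ⟨j, hj⟩ := normC_mem (pre b).1
    show _ = mulZ _ _
    rw [mulZ, hi, hj, ← matEnc_mul, Subgroup.coe_mul]
    have e : (pre a).1 * Om ^ i * ((pre b).1 * Om ^ j) = (pre a).1 * (pre b).1 * Om ^ (i + j) := by
      rw [mul_assoc, ← mul_assoc (Om ^ i),
        ← (show Commute (pre b).1 (Om ^ i) from
          Commute.pow_right (Om_central _ (pre b).2) i).eq, mul_assoc, ← pow_add, ← mul_assoc]
    rw [e, normC_Om_pow]
  enc_inj a b h := by
    simp only at h
    obtain ⟨i, hi⟩ := normC_mem (pre a).1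
    obtain ⟨j, hj⟩ := normC_mem (pre b).1
    rw [hi, hj] at h
    have hOm : ∀ n, (⟨Om ^ n, pow_mem Om_mem n⟩ : cover) ∈ kerZ := by
      intro n
      refine mem_kerZ_of_code ?_
      show centB (matEnc (Om ^ n)) = true
      rw [← Nat.div_add_mod n 3, pow_add, pow_mul, Om_cube, one_pow, one_mul]
      have := Nat.mod_lt n (show 0 < 3 by norm_num)
      interval_cases hn : n % 3
      · rw [pow_zero, matEnc_one]; simp [centB]
      · rw [pow_one, matEnc_Om]; simp [centB]
      · rw [pow_two, matEnc_Om_sq]; simp [centB]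
    have key : ∀ (x : Cfsg.Spor.Suz) (n : ℕ),
        proj (pre x * ⟨Om ^ n, pow_mem Om_mem n⟩) = x := fun x n => by
      rw [map_mul, proj_pre, MonoidHom.mem_ker.1 (proj_ker.symm ▸ hOm n), mul_one]
    rcases mem_pm_of_code (g := pre a * ⟨Om ^ i, pow_mem Om_mem i⟩)
      (h := pre b * ⟨Om ^ j, pow_mem Om_mem j⟩) h with e | e
    · rw [← key a i, e, key]
    · have hn : proj negK = 1 := by
        rw [← MonoidHom.mem_ker, proj_ker]
        exact mem_kerZ_of_code (by show centB (matEnc negCo0) = true; rw [matEnc_neg]; simp [centB])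
      rw [← key a i, e, map_mul, hn, mul_one, key]

/-- The steps compute what they claim. -/
def progZ : List ℕ → List (ℕ × ℕ × ℕ) → Bool
  | _, [] => true
  | L, (i, j, c) :: r =>
    Nat.beq c (mulZ (L.getD i oneZ) (L.getD j oneZ)) && progZ (c :: L) r

theorem progZ_achieved : ∀ (r : List (ℕ × ℕ × ℕ)) (L : List ℕ),
    progZ L r = true → (∀ c ∈ L, ∃ x, suzCode.enc x = c) →
      ∀ c ∈ progCodes L r, ∃ x, suzCode.enc x = c := by
  intro r
  induction r with
  | nil => intro L _ hL c hc; exact hL c hc
  | cons s r ih =>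
    obtain ⟨i, j, c₀⟩ := s
    intro L h hL
    simp only [progZ, Bool.and_eq_true] at h
    refine ih (c₀ :: L) h.2 fun c hc => ?_
    rcases List.mem_cons.mp hc with rfl | hc
    · have hget : ∀ i, ∃ x, suzCode.enc x = L.getD i oneZ := by
        intro i
        rw [List.getD_eq_getElem?_getD]
        cases hi : L[i]? with
        | none => exact ⟨1, suzCode.enc_one⟩
        | some x => exact hL x (List.mem_of_getElem? hi)
      obtain ⟨a, ea⟩ := hget i
      obtain ⟨b, eb⟩ := hget j
      exact ⟨a * b, by rw [suzCode.enc_mul, ea, eb, Nat.eq_of_beq_eq_true h.1]; rfl⟩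
    · exact hL c hc

theorem enc_of (x : Cfsg.Spor.Suz.Gen) :
    suzCode.enc (PresentedGroup.of x) = normC (letterCodes.getD (genIdx x - 1) matOne) := by
  show normC (matEnc (pre (PresentedGroup.of x)).1) = _
  rw [normC_of_proj (h := ⟨liftGen x, liftGen_mem x⟩) (by rw [proj_pre, proj_liftGen]),
    matEnc_liftGen]

end Cfsg.Agent.SuzCover
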