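import Cfsg.Agent.SuzCover.FastKey
import Cfsg.Agent.SuzCover.Data

/-!
The words of the program act by the given matrices.
-/

set_option autoImplicit false
set_option maxRecDepth 100000
set_option Elab.async false

namespace Cfsg.Agent.SuzCover

open Cfsg.Agent.Leech

theorem base_a : ((gensProg.base.take 14).all fun g => actsFast g.1 g.2) = true := by
  decide +kernel

theorem base_b : (((gensProg.base.drop 14).take 14).all fun g => actsFast g.1 g.2) = true := by
  decide +kernel

theorem base_c : ((gensProg.base.drop 28).all fun g => actsFast g.1 g.2) = true := by
  decide +kernel

theorem base_ok : (gensProg.base.all fun g => actsFast g.1 g.2) = true := by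
  have e : gensProg.base = gensProg.base.take 14 ++
      ((gensProg.base.drop 14).take 14 ++ gensProg.base.drop 28) := by rfl
  rw [e, List.all_append, List.all_append, base_a, base_b, base_c]
  rfl

theorem base_len : (gensProg.base.all fun g => Nat.beq g.2.length 24) = true := by decide +kernel

end Cfsg.Agent.SuzCover
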