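import Cfsg.Agent.SuzCover.Code

/-!
All codes used by the certificates belong to the group.
-/

set_option autoImplicit false
set_option maxRecDepth 100000
set_option Elab.async false

namespace Cfsg.Agent.SuzCover

open Cfsg Cfsg.Agent.Leech Cfsg.Agent.SchurCert

theorem genCodes_eq : genCodes = genList.map fun x =>
    normC (letterCodes.getD (genIdx x - 1) matOne) := by decide +kernel

/-- The codes that the certificates need. -/
def needCodes : List ℕ :=
  (suzCert2One.gens ++ suzCert2One.gs) ++ (suzCert2Two.gens ++ suzCert2Two.gs) ++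
    (suzCert3One.gens ++ suzCert3One.gs) ++ (suzCert3Two.gens ++ suzCert3Two.gs) ++
    (suzCert5One.gens ++ suzCert5One.gs)

theorem certSteps_ok : progZ genCodes.reverse certSteps = true := by decide +kernel

theorem need_ok : (needCodes.all fun c =>
    (progCodes genCodes.reverse certSteps).any (Nat.beq c)) = true := by decide +kernel

theorem exists_code {c : ℕ} (hc : c ∈ needCodes) : ∃ x, suzCode.enc x = c := by
  obtain ⟨y, hy, hcy⟩ := List.any_eq_true.1 (List.all_eq_true.1 need_ok c hc)
  rw [Nat.eq_of_beq_eq_true hcy]
  refine progZ_achieved _ _ certSteps_ok (fun d hd => ?_) y hy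
  rw [List.mem_reverse, genCodes_eq, List.mem_map] at hd
  obtain ⟨x, -, rfl⟩ := hd
  exact ⟨_, enc_of x⟩

/-- An element with a given code. -/
noncomputable def suzElem (c : ℕ) : Cfsg.Spor.Suz :=
  open Classical in if h : ∃ x, suzCode.enc x = c then h.choose else 1

theorem enc_suzElem (L : List ℕ) (hL : ∀ c ∈ L, c ∈ needCodes) (i : ℕ) :
    suzCode.enc (suzElem (L.getD i oneZ)) = L.getD i oneZ := by
  have h : ∃ x, suzCode.enc x = L.getD i oneZ := by
    rw [List.getD_eq_getElem?_getD]
    cases hi : L[i]? with
    | none => exact ⟨1, suzCode.enc_one⟩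
    | some y => exact exists_code (hL y (List.mem_of_getElem? hi))
  rw [suzElem, dif_pos h]
  exact h.choose_spec

end Cfsg.Agent.SuzCover
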