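import Cfsg.Agent.SuzCover.BaseCheck
import Cfsg.Agent.SuzCover.Checks
import Cfsg.Agent.CosetEnum.Suzuki.Main
import Cfsg.Prelude.Def_KGroupFacts

/-!
A stem extension of the Suzuki group with kernel cyclic of order six, inside the automorphism
group of the Leech lattice.
-/

set_option autoImplicit false

namespace Cfsg.Agent.SuzCover

open Cfsg Cfsg.Agent.Leech Cfsg.Spor

theorem negCo0_mem_center : negCo0 ∈ Subgroup.center Co0 := (center_eq _).2 (Or.inr rfl)

theorem negCo0_comm (g : Co0) : g * negCo0 = negCo0 * g :=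
  Subgroup.mem_center_iff.1 negCo0_mem_center g

theorem negCo0_sq : negCo0 * negCo0 = 1 := by
  rcases (center_eq _).1 (mul_mem negCo0_mem_center negCo0_mem_center) with h | h
  · exact h
  · exact absurd (mul_left_cancel (h.trans (mul_one negCo0).symm)) negCo0_ne_one

theorem matEnc_neg_mul (g : Co0) : matEnc (g * negCo0) = matEnc g := by
  refine congrArg packCols (List.map_congr_left fun v _ => ?_)
  rw [mul_smul, negCo0_smul, co0_neg]
  have h0 : keyOf (g • v + -(g • v)).1 = keyOf (g • v).1 ^^^ keyOf (-(g • v)).1 := keyOf_add' _ _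
  rw [add_neg_cancel, keyOf_zero'] at h0
  have h1 := congrArg (keyOf (g • v).1 ^^^ ·) h0
  simp only [← Nat.xor_assoc, Nat.xor_self, Nat.zero_xor, Nat.xor_zero] at h1
  exact h1.symm

theorem matEnc_neg : matEnc negCo0 = matOne := by
  rw [← one_mul negCo0, matEnc_neg_mul, matEnc_one]

theorem exists_elt {c : ℕ} (hc : c ∈ letterCodes ++ [omCode, sqCode, sqConj]) :
    ∃ g : Co0, matEnc g = c := by
  have hok : gensProg.okB (([] : List leechLattice).map fun v => v.1)
      (letterCodes ++ [omCode, sqCode, sqConj]) = true := by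
    simp only [MatProg.okB, List.map_nil, List.all_nil, Bool.and_true, Bool.and_eq_true]
    refine ⟨⟨List.all_eq_true.2 fun g hg => ?_, steps_ok.1⟩, steps_ok.2⟩
    simp only [Bool.and_eq_true]
    exact ⟨actsB_of_fast (List.all_eq_true.1 base_ok g hg), List.all_eq_true.1 base_len g hg⟩
  obtain ⟨g, -, hg⟩ := exists_of_okB hok c hc
  exact ⟨g, hg⟩

/-- An element with a given code. -/
noncomputable def elt (c : ℕ) : Co0 :=
  open Classical in if h : ∃ g : Co0, matEnc g = c then h.choose else 1

theorem matEnc_elt {c : ℕ} (hc : c ∈ letterCodes ++ [omCode, sqCode, sqConj]) :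
    matEnc (elt c) = c := by
  rw [elt, dif_pos (exists_elt hc)]
  exact (exists_elt hc).choose_spec

/-- The lift of a generator. -/
noncomputable def liftGen (x : Suz.Gen) : Co0 := elt (letterCodes.getD (genIdx x - 1) matOne)

theorem codeW_single (i : ℕ) (h : matMul (letterCodes.getD (i - 1) matOne) matOne =
    letterCodes.getD (i - 1) matOne) : codeW [i] = letterCodes.getD (i - 1) matOne := h

theorem letters_length : letterCodes.length = 7 := by decide +kernel

theorem matEnc_liftGen (x : Suz.Gen) :
    matEnc (liftGen x) = letterCodes.getD (genIdx x - 1) matOne := by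
  refine matEnc_elt (List.mem_append_left _ ?_)
  rw [List.getD_eq_getElem?_getD, List.getElem?_eq_getElem (by
    rw [letters_length]; cases x <;> decide), Option.getD_some]
  exact List.getElem_mem _

theorem mem_genList (x : Suz.Gen) : x ∈ genList := by cases x <;> decide

/-- The central element of order three. -/
noncomputable def Om : Co0 := elt omCode ^ 4

theorem elt_om : matEnc (elt omCode) = omCode :=
  matEnc_elt (List.mem_append_right _ List.mem_cons_self)

theorem omSq_mul : matMul omSq omCode = matOne := Nat.eq_of_beq_eq_true om_facts.2.1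

theorem elt_om_cube : matEnc (elt omCode ^ 3) = matOne := by
  rw [pow_succ, pow_two, matEnc_mul, matEnc_mul, elt_om]
  exact omSq_mul

theorem Om_cube : Om ^ 3 = 1 := by
  rw [Om, ← pow_mul, show 4 * 3 = 3 * 4 from rfl, pow_mul]
  rcases eq_or_neg_of_matEnc (elt_om_cube.trans matEnc_one.symm) with h | h
  · rw [h, one_pow]
  · rw [h, one_mul, show 4 = 2 * 2 from rfl, pow_mul, pow_two negCo0, negCo0_sq, one_pow]

theorem matEnc_Om : matEnc Om = omCode := by
  rw [Om, pow_succ, matEnc_mul, elt_om_cube, ← matEnc_one, ← matEnc_mul, one_mul, elt_om]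

theorem matEnc_Om_sq : matEnc (Om * Om) = omSq := by rw [matEnc_mul, matEnc_Om]; rfl

theorem matEnc_word (w : List Suz.Gen) : matEnc (w.map liftGen).prod = codeW (w.map genIdx) := by
  induction w with
  | nil => exact matEnc_one
  | cons x w ih =>
    rw [List.map_cons, List.prod_cons, matEnc_mul, ih, matEnc_liftGen]; rfl

theorem matEnc_wordPow (w : List Suz.Gen) (n : ℕ) :
    matEnc ((w.map liftGen).prod ^ n) = codeP (w.map genIdx) n := by
  induction n with
  | zero => rw [pow_zero]; exact matEnc_one
  | succ n ih => rw [pow_succ, matEnc_mul, ih, matEnc_word]; rfl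

theorem liftGen_comm (x : Suz.Gen) : Om * liftGen x = liftGen x * Om := by
  have h : matEnc (Om * liftGen x) = matEnc (liftGen x * Om) := by
    have e := Nat.eq_of_beq_eq_true (List.all_eq_true.1 om_facts.1 x (mem_genList x))
    have e2 : codeW [genIdx x] = matEnc (liftGen x) := by
      have := matEnc_word [x]
      simpa using this.symm
    rw [e2] at e
    rw [matEnc_mul, matEnc_mul, matEnc_Om]
    exact e
  rcases eq_or_neg_of_matEnc h with h1 | h1
  · exact h1
  · exfalso
    have hz : ∀ g : Co0, Commute negCo0 g := fun g => (negCo0_comm g).symm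
    have e : liftGen x * Om * (liftGen x)⁻¹ = Om * negCo0 := by
      have h2 : liftGen x * Om = Om * negCo0 * liftGen x := by
        rw [mul_assoc Om, (hz (liftGen x)).eq, ← mul_assoc, h1, mul_assoc, negCo0_sq, mul_one]
      rw [h2, mul_inv_cancel_right]
    have e3 := congrArg (· ^ 3) e
    simp only [conj_pow, Om_cube, mul_one, mul_inv_cancel, (hz Om).symm.mul_pow, one_mul] at e3
    rw [pow_succ, pow_two, negCo0_sq, one_mul] at e3
    exact negCo0_ne_one e3.symm

/-- The generator of the kernel. -/
noncomputable def zel : Co0 := Om * negCo0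

/-- The lifts with the kernel generate the cover. -/
noncomputable def cover : Subgroup Co0 :=
  Subgroup.closure (Set.range liftGen ∪ {Om, negCo0})

theorem liftGen_mem (x : Suz.Gen) : liftGen x ∈ cover :=
  Subgroup.subset_closure (Or.inl ⟨x, rfl⟩)

theorem Om_mem : Om ∈ cover := Subgroup.subset_closure (Or.inr (Or.inl rfl))

theorem neg_mem_cover : negCo0 ∈ cover := Subgroup.subset_closure (Or.inr (Or.inr rfl))

theorem Om_central : ∀ k ∈ cover, k * Om = Om * k := by
  intro k hk
  have : cover ≤ Subgroup.centralizer {Om} := by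
    refine (Subgroup.closure_le _).2 ?_
    rintro g (⟨x, rfl⟩ | rfl | rfl)
    · rw [SetLike.mem_coe, Subgroup.mem_centralizer_iff]
      intro h hh; rw [Set.mem_singleton_iff.1 hh]; exact liftGen_comm x
    · rw [SetLike.mem_coe, Subgroup.mem_centralizer_iff]
      intro h hh; rw [Set.mem_singleton_iff.1 hh]
    · rw [SetLike.mem_coe, Subgroup.mem_centralizer_iff]
      intro h hh; rw [Set.mem_singleton_iff.1 hh]; exact negCo0_comm Om
  exact (Subgroup.mem_centralizer_iff.1 (this hk) Om rfl).symm

/-- The kernel generator in the cover. -/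
noncomputable def zK : cover := ⟨zel, mul_mem Om_mem neg_mem_cover⟩

/-- The kernel. -/
noncomputable def kerZ : Subgroup cover := Subgroup.zpowers zK

theorem zK_central : zK ∈ Subgroup.center cover := by
  rw [Subgroup.mem_center_iff]
  intro g
  apply Subtype.ext
  show g.1 * (Om * negCo0) = Om * negCo0 * g.1
  rw [← mul_assoc, Om_central g.1 g.2, mul_assoc, negCo0_comm, ← mul_assoc]

theorem kerZ_le_center : kerZ ≤ Subgroup.center cover := Subgroup.zpowers_le.2 zK_central

instance kerZ_normal : kerZ.Normal where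
  conj_mem n hn g := by
    rw [Subgroup.mem_center_iff.1 (kerZ_le_center hn) g, mul_inv_cancel_right]; exact hn

theorem Om_neg_pow (n : ℕ) : (Om * negCo0) ^ n = Om ^ n * negCo0 ^ n :=
  (show Commute Om negCo0 from negCo0_comm Om).mul_pow n

theorem mem_kerZ_of_code {k : cover} (h : centB (matEnc k.1) = true) : k ∈ kerZ := by
  have key : ∀ g : Co0, g = 1 ∨ g = Om ∨ g = Om * Om → ∀ s : Co0, s = g ∨ s = g * negCo0 →
      ∃ n : ℕ, (Om * negCo0) ^ n = s := by
    have hp : negCo0 ^ 2 = 1 := by rw [pow_two, negCo0_sq]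
    have h3 : negCo0 ^ 3 = negCo0 := by rw [pow_succ, hp, one_mul]
    have h4 : Om ^ 4 = Om := by rw [pow_succ, Om_cube, one_mul]
    have h5 : Om ^ 5 = Om * Om := by rw [pow_succ, h4]
    have n4 : negCo0 ^ 4 = 1 := by rw [show 4 = 2 * 2 from rfl, pow_mul, hp, one_pow]
    have n5 : negCo0 ^ 5 = negCo0 := by rw [pow_succ, n4, one_mul]
    intro g hg s hs
    rcases hg with rfl | rfl | rfl <;> rcases hs with rfl | rfl
    · exact ⟨0, pow_zero _⟩
    · exact ⟨3, by rw [Om_neg_pow, Om_cube, h3]⟩
    · exact ⟨4, by rw [Om_neg_pow, h4, n4, mul_one]⟩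
    · exact ⟨1, pow_one _⟩
    · exact ⟨2, by rw [Om_neg_pow, hp, pow_two, mul_one]⟩
    · exact ⟨5, by rw [Om_neg_pow, h5, n5]⟩
  have hg : ∃ g : Co0, (g = 1 ∨ g = Om ∨ g = Om * Om) ∧ matEnc g = matEnc k.1 := by
    simp only [centB, Bool.or_eq_true] at h
    rcases h with (h | h) | h
    · exact ⟨1, Or.inl rfl, matEnc_one.trans (Nat.eq_of_beq_eq_true h).symm⟩
    · exact ⟨Om, Or.inr (Or.inl rfl), matEnc_Om.trans (Nat.eq_of_beq_eq_true h).symm⟩
    · exact ⟨Om * Om, Or.inr (Or.inr rfl), matEnc_Om_sq.trans (Nat.eq_of_beq_eq_true h).symm⟩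
  obtain ⟨g, hg, e⟩ := hg
  obtain ⟨n, hn⟩ := key g hg k.1 (eq_or_neg_of_matEnc e.symm)
  refine Subgroup.mem_zpowers_iff.2 ⟨n, ?_⟩
  rw [zpow_natCast]
  exact Subtype.ext hn

theorem code_of_mem_kerZ {k : cover} (h : k ∈ kerZ) :
    ∃ j : ℕ, matEnc k.1 = matEnc (Om ^ j) := by
  have hfin : Finite cover := by
    haveI := finite_Co0
    exact Subtype.finite
  obtain ⟨n, hn⟩ := (Submonoid.mem_powers_iff _ _).1
    ((isOfFinOrder_of_finite zK).mem_powers_iff_mem_zpowers.2 h)
  clear h
  refine ⟨n, ?_⟩
  rw [← hn, SubgroupClass.coe_pow]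
  show matEnc ((Om * negCo0) ^ n) = _
  rw [Om_neg_pow]
  clear hn
  induction n with
  | zero => rw [pow_zero negCo0, mul_one]
  | succ n _ =>
    rcases Nat.even_or_odd (n + 1) with ⟨m, hm⟩ | ⟨m, hm⟩
    · rw [hm, ← two_mul, pow_mul negCo0, pow_two negCo0, negCo0_sq, one_pow, mul_one]
    · rw [hm, pow_succ negCo0, pow_mul negCo0, pow_two negCo0, negCo0_sq, one_pow, one_mul,
        matEnc_neg_mul]

/-- The image of a generator modulo the kernel. -/
noncomputable def quotGen (x : Suz.Gen) : cover ⧸ kerZ :=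
  QuotientGroup.mk' kerZ ⟨liftGen x, liftGen_mem x⟩

theorem quot_word_one (w : List Suz.Gen) (n : ℕ)
    (h : centB (codeP (w.map genIdx) n) = true) : (w.map quotGen).prod ^ n = 1 := by
  have e : (w.map quotGen).prod =
      QuotientGroup.mk' kerZ ((w.map fun x => (⟨liftGen x, liftGen_mem x⟩ : cover)).prod) := by
    rw [map_list_prod, List.map_map]; rfl
  rw [e, ← map_pow, ← MonoidHom.mem_ker, QuotientGroup.ker_mk']
  refine mem_kerZ_of_code ?_
  rw [SubgroupClass.coe_pow, SubmonoidClass.coe_list_prod, List.map_map]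
  rw [← matEnc_wordPow] at h
  exact h

theorem quotGen_sq (x : Suz.Gen) : quotGen x * quotGen x = 1 := by
  have h := quot_word_one [x, x] 1 ?_
  · simpa using h
  have e := Nat.eq_of_beq_eq_true (List.all_eq_true.1 sq_letters x (mem_genList x))
  have : codeP [genIdx x, genIdx x] 1 = matMul matOne (codeW [genIdx x, genIdx x]) := rfl
  simp only [List.map_cons, List.map_nil, this, e]
  decide +kernel

theorem relators_hold : ∀ r ∈ coxRelators Suz.edges ∪ {r | r ∈ Suz.extra},
    FreeGroup.lift quotGen r = 1 := by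
  rintro r (⟨x, -, y, -, rfl⟩ | hr)
  · rw [map_pow, map_mul, FreeGroup.lift_apply_of, FreeGroup.lift_apply_of]
    have h := quot_word_one [x, y] (coxLabel Suz.edges x y)
      (List.all_eq_true.1 (List.all_eq_true.1 cox_ok x (mem_genList x)) y (mem_genList y))
    simpa using h
  · obtain ⟨h1, h2, h3, h4, -, h6⟩ := extra_ok
    have eqA : ∀ w : List Suz.Gen, ∀ n, Nat.beq (codeP (w.map genIdx) n)
        (letterCodes.getD 0 matOne) = true → (w.map quotGen).prod ^ n = quotGen .a := by
      intro w n h
      have e : (w.map quotGen).prod ^ n = QuotientGroup.mk' kerZ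
          ((w.map fun x => (⟨liftGen x, liftGen_mem x⟩ : cover)).prod ^ n) := by
        rw [map_pow, map_list_prod, List.map_map]; rfl
      rw [e, quotGen]
      refine (QuotientGroup.eq (s := kerZ)).2 (mem_kerZ_of_code ?_)
      have hcode : matEnc (((w.map fun x => (⟨liftGen x, liftGen_mem x⟩ : cover)).prod ^ n : cover)).1
          = matEnc (liftGen .a) := by
        rw [SubgroupClass.coe_pow, SubmonoidClass.coe_list_prod, List.map_map, matEnc_liftGen]
        exact (matEnc_wordPow w n).trans (Nat.eq_of_beq_eq_true h)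
      rcases eq_or_neg_of_matEnc hcode with e1 | e1
      · rw [Subgroup.coe_mul, Subgroup.coe_inv, e1, inv_mul_cancel, matEnc_one]; decide +kernel
      · rw [Subgroup.coe_mul, Subgroup.coe_inv, e1, mul_inv_rev, mul_assoc, inv_mul_cancel,
          mul_one, inv_eq_of_mul_eq_one_right negCo0_sq, matEnc_neg]
        decide +kernel
    have cent : ∀ (w : List Suz.Gen) (n : ℕ) (c : ℕ), centB c = true →
        Nat.beq (codeP (w.map genIdx) n) c = true → (w.map quotGen).prod ^ n = 1 :=
      fun w n c hc h => quot_word_one w n ((Nat.eq_of_beq_eq_true h).symm ▸ hc)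
    simp only [Suz.extra, List.mem_cons, List.not_mem_nil, or_false, Set.mem_setOf_eq] at hr
    have a1 := eqA [.c, .d] 4 h1
    have a2 := eqA [.f, .g] 2 h2
    have a3 := cent [.a, .b, .c, .f] 5 matOne (by decide +kernel) h3
    have a4 := cent [.b, .f, .g] 5 omCode (by decide +kernel) h4
    simp only [List.map_cons, List.map_nil, List.prod_cons, List.prod_nil, mul_one] at a1 a2 a3 a4
    rcases hr with rfl | rfl | rfl | rfl | rfl
    · simp only [Suz.a, Suz.c, Suz.d, map_mul, map_inv, map_pow, FreeGroup.lift_apply_of]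
      rw [a1, mul_inv_cancel]
    · simp only [Suz.a, Suz.f, Suz.g, map_mul, map_inv, map_pow, FreeGroup.lift_apply_of]
      rw [a2, mul_inv_cancel]
    · simp only [Suz.a, Suz.b, Suz.c, Suz.f, map_mul, map_pow, FreeGroup.lift_apply_of]
      simpa only [mul_assoc] using a3
    · simp only [Suz.b, Suz.f, Suz.g, map_mul, map_pow, FreeGroup.lift_apply_of]
      simpa only [mul_assoc] using a4
    · simp only [Suz.b, Suz.c, Suz.d, Suz.e, map_mul, map_pow, FreeGroup.lift_apply_of]
      let X : List Suz.Gen := [.b, .c, .d, .c, .d]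
      let L : cover := ((X.map fun x => (⟨liftGen x, liftGen_mem x⟩ : cover)).prod) ^ 5 *
        ⟨liftGen .e, liftGen_mem .e⟩
      have hL : L ^ 3 ∈ kerZ := by
        refine mem_kerZ_of_code ?_
        have hc : matEnc L.1 = matMul (codeP (X.map genIdx) 5) (codeW [5]) := by
          rw [Subgroup.coe_mul, SubgroupClass.coe_pow, SubmonoidClass.coe_list_prod, List.map_map,
            matEnc_mul]
          refine congrArg₂ _ (matEnc_wordPow X 5) ?_
          have := matEnc_word [Suz.Gen.e]
          simpa [genIdx] using this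
        rw [SubgroupClass.coe_pow, pow_three, matEnc_mul, matEnc_mul, hc]
        have h7 := Nat.eq_of_beq_eq_true h6
        show centB (matMul (matMul (codeP [2, 3, 4, 3, 4] 5) (codeW [5]))
          (matMul (matMul (codeP [2, 3, 4, 3, 4] 5) (codeW [5]))
            (matMul (codeP [2, 3, 4, 3, 4] 5) (codeW [5])))) = true
        rw [h7]; decide +kernel
      have e := MonoidHom.mem_ker.1 ((QuotientGroup.ker_mk' kerZ).symm ▸ hL)
      simp only [L, X, map_pow, map_mul, List.map_cons, List.map_nil, List.prod_cons,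
        List.prod_nil, mul_one] at e
      unfold quotGen
      simpa only [mul_assoc] using e

/-- The presented group maps onto the cover modulo the kernel. -/
noncomputable def toQuot : Cfsg.Spor.Suz →* cover ⧸ kerZ := PresentedGroup.toGroup relators_hold

theorem toQuot_of (x : Suz.Gen) : toQuot (PresentedGroup.of x) = quotGen x :=
  PresentedGroup.toGroup.of relators_hold

theorem toQuot_surjective : Function.Surjective toQuot := by
  rw [← MonoidHom.range_eq_top, eq_top_iff]
  intro q hq
  clear hq
  obtain ⟨⟨k, hk⟩, rfl⟩ := QuotientGroup.mk'_surjective kerZ q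
  induction hk using Subgroup.closure_induction with
  | mem g hg =>
    rcases hg with ⟨x, rfl⟩ | rfl | rfl
    · exact ⟨PresentedGroup.of x, toQuot_of x⟩
    · refine ⟨1, ?_⟩
      rw [map_one, eq_comm, ← MonoidHom.mem_ker, QuotientGroup.ker_mk']
      exact mem_kerZ_of_code (by show centB (matEnc Om) = true; rw [matEnc_Om]; decide +kernel)
    · refine ⟨1, ?_⟩
      rw [map_one, eq_comm, ← MonoidHom.mem_ker, QuotientGroup.ker_mk']
      exact mem_kerZ_of_code (by show centB (matEnc negCo0) = true; rw [matEnc_neg]; decide +kernel)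
  | one => exact one_mem _
  | mul a b ha hb ea eb =>
    obtain ⟨u, hu⟩ := ea; obtain ⟨v, hv⟩ := eb
    exact ⟨u * v, by rw [map_mul, hu, hv, ← map_mul]; rfl⟩
  | inv a ha ea =>
    obtain ⟨u, hu⟩ := ea
    exact ⟨u⁻¹, by rw [map_inv, hu, ← map_inv]; rfl⟩

theorem toQuot_injective : Function.Injective toQuot := by
  haveI := CosetEnum.Suzuki.main.1
  rw [← MonoidHom.ker_eq_bot_iff]
  rcases (toQuot.normal_ker).eq_bot_or_eq_top with h | h
  · exact h
  · exfalso
    have h1 : toQuot (PresentedGroup.of Suz.Gen.a) = 1 :=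
      MonoidHom.mem_ker.1 (h ▸ Subgroup.mem_top _)
    rw [toQuot_of, quotGen, ← MonoidHom.mem_ker, QuotientGroup.ker_mk'] at h1
    obtain ⟨j, hj⟩ := code_of_mem_kerZ h1
    have hc : centB (matEnc (Om ^ j)) = true := by
      rw [← Nat.div_add_mod j 3, pow_add, pow_mul, Om_cube, one_pow, one_mul]
      have := Nat.mod_lt j (show 0 < 3 by norm_num)
      interval_cases hj3 : j % 3
      · rw [pow_zero, matEnc_one]; decide +kernel
      · rw [pow_one, matEnc_Om]; decide +kernel
      · rw [pow_two, matEnc_Om_sq]; decide +kernel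
    rw [← hj] at hc
    have h2 : codeW [1] = matEnc (liftGen .a) := by
      have := matEnc_word [Suz.Gen.a]
      simpa [genIdx] using this.symm
    rw [← h2, om_facts.2.2.2.2] at hc
    exact Bool.noConfusion hc

/-- The presented group is the cover modulo the kernel. -/
noncomputable def quotEquiv : Cfsg.Spor.Suz ≃* cover ⧸ kerZ :=
  MulEquiv.ofBijective toQuot ⟨toQuot_injective, toQuot_surjective⟩

/-- The cover maps onto the Suzuki group. -/
noncomputable def proj : cover →* Cfsg.Spor.Suz :=
  quotEquiv.symm.toMonoidHom.comp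
    (QuotientGroup.mk' kerZ)

theorem proj_surjective : Function.Surjective proj :=
  (quotEquiv.symm.surjective).comp
    (QuotientGroup.mk'_surjective kerZ)

theorem proj_ker : proj.ker = kerZ := by
  ext k
  rw [MonoidHom.mem_ker, proj, MonoidHom.comp_apply, MulEquiv.coe_toMonoidHom,
    EmbeddingLike.map_eq_one_iff, QuotientGroup.mk'_apply, QuotientGroup.eq_one_iff]

theorem proj_liftGen (x : Suz.Gen) :
    proj ⟨liftGen x, liftGen_mem x⟩ = PresentedGroup.of x := by
  refine quotEquiv.injective ?_
  rw [proj, MonoidHom.comp_apply, MulEquiv.coe_toMonoidHom, MulEquiv.apply_symm_apply]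
  exact (toQuot_of x).symm

end Cfsg.Agent.SuzCover
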